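import Cfsg.Agent.Lib.Conway.U43C.PD
import Cfsg.Agent.Lib.Conway.McLSimple
import Cfsg.Agent.Lib.Conway.Co3Use2

/-!
# Definitions for the stabiliser of three vectors: vectors and lines
-/

set_option autoImplicit false

namespace Cfsg.Agent.Lib.Conway.U43C

open Cfsg Cfsg.Spor Cfsg.Agent.Lib.Compute Cfsg.Agent.Lib.Golay Cfsg.Agent.Lib.KnownSimple.PE Cfsg.Agent.Lib.KnownSimple.Leech

/-- A packed vector of the table. -/
noncomputable def xc (m : ℕ) : ℕ := Nat.land (Nat.shiftRight xP (Nat.mul 120 m)) 1329227995784915872903807060280344575

/-- An entry of the incidence table. -/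
noncomputable def sl (m k : ℕ) : ℕ := Nat.land (Nat.shiftRight sP (Nat.mul 10 (Nat.add (Nat.mul 10 m) k))) 1023

/-- The permutation of a generator on the vectors. -/
noncomputable def sg (g m : ℕ) : ℕ := Nat.land (Nat.shiftRight sgP (Nat.mul 10 (Nat.add (Nat.mul 8 m) g))) 1023

/-- The mask of the first entries of the incidence table. -/
noncomputable def mkN (m : ℕ) (K : ℕ) : ℕ := Nat.rec 0 (fun k ih => Nat.lor ih (Nat.shiftLeft 1 (sl m k))) K

/-- The mask of a row of the incidence table. -/
noncomputable abbrev mk (m : ℕ) : ℕ := mkN m 10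

/-- The check of the image of the vectors. -/
noncomputable def chkI (S : List (List (ℕ × ℤ))) (g : ℕ) : Bool :=
  allBelow (fun m => bcond (Nat.blt (sg g m) 112) (chkImgV S (vecZ xc m) (vecZ xc (sg g m))) false) 112

/-- The check on the incidence. -/
noncomputable def chkN (g : ℕ) : Bool :=
  allBelow (fun m => allBelow (fun k => Cfsg.Agent.Lib.Compute.tb (mk (sg g m)) (tO (sl m k) g)) 10) 112

/-- The check on the fixed vectors. -/
noncomputable def chkF (S : List (List (ℕ × ℤ))) : Bool :=
  chkImgV S (vecZ xc 112) (vecZ xc 112) && chkImgV S (vecZ xc 113) (vecZ xc 113) && chkImgV S (vecZ xc 114) (vecZ xc 114)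

/-- The indices of a spanning family. -/
noncomputable def bi (i : ℕ) : ℕ := bcond (Nat.blt i 21) i (Nat.add i 91)

/-- A spanning family. -/
noncomputable def Bf (i k : ℕ) : ℤ := vecZ xc (bi i) k

/-- The coefficients of the generators of the lattice in the spanning family. -/
noncomputable def Cf (j i : ℕ) : ℤ := (CfL.getD j []).getD i 0

theorem hmem : allBelow (fun i => chkL (vecZ xc i)) 115 = true := by decide +kernel

theorem hsl : allBelow (fun m => allBelow (fun k => Nat.blt (sl m k) 280) 10) 112 = true := by decide +kernel

theorem chkU : allBelow (fun m => allBelow (fun m' => bcond (allBelow (fun k => Cfsg.Agent.Lib.Compute.tb (mk m') (sl m k)) 10) (Nat.beq m' m) true) 112) 21 = true := by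
  decide +kernel

theorem chkSp : chkSpan Dn Bf 24 Cf = true := by decide +kernel

theorem chkEqV : allBelow (fun j => decide (vecZ xc 112 j = dotS rowV (dlt j))) 24 = true := by decide +kernel

theorem chkEqU : allBelow (fun j => decide (vecZ xc 113 j = dotS rowU (dlt j))) 24 = true := by decide +kernel

theorem norm_x0 : dotZ xc 114 114 = 32 := by decide +kernel

theorem dot_V_x0 : dotZ xc 112 114 = -24 := by decide +kernel

theorem dot_U_x0 : dotZ xc 113 114 = 16 := by decide +kernel

theorem moved : vecZ xc (sg 1 0) 0 ≠ vecZ xc 0 0 := by decide +kernel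

theorem sg10 : sg 1 0 < 112 := by decide +kernel

theorem ce0 : chkElt S0 S1 = true := by decide +kernel
theorem ce1 : chkElt S1 S0 = true := by decide +kernel
theorem ce2 : chkElt S2 S3 = true := by decide +kernel
theorem ce3 : chkElt S3 S2 = true := by decide +kernel
theorem ce4 : chkElt S4 S5 = true := by decide +kernel
theorem ce5 : chkElt S5 S4 = true := by decide +kernel
theorem ce6 : chkElt S6 S7 = true := by decide +kernel
theorem ce7 : chkElt S7 S6 = true := by decide +kernel

theorem cF0 : chkF S0 = true := by decide +kernel
theorem cF1 : chkF S1 = true := by decide +kernel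
theorem cF2 : chkF S2 = true := by decide +kernel
theorem cF3 : chkF S3 = true := by decide +kernel
theorem cF4 : chkF S4 = true := by decide +kernel
theorem cF5 : chkF S5 = true := by decide +kernel
theorem cF6 : chkF S6 = true := by decide +kernel
theorem cF7 : chkF S7 = true := by decide +kernel

theorem cI0 : chkI S0 0 = true := by decide +kernel
theorem cI1 : chkI S1 1 = true := by decide +kernel
theorem cI2 : chkI S2 2 = true := by decide +kernel
theorem cI3 : chkI S3 3 = true := by decide +kernel
theorem cI4 : chkI S4 4 = true := by decide +kernel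
theorem cI5 : chkI S5 5 = true := by decide +kernel
theorem cI6 : chkI S6 6 = true := by decide +kernel
theorem cI7 : chkI S7 7 = true := by decide +kernel

theorem cN0 : chkN 0 = true := by decide +kernel
theorem cN1 : chkN 1 = true := by decide +kernel
theorem cN2 : chkN 2 = true := by decide +kernel
theorem cN3 : chkN 3 = true := by decide +kernel
theorem cN4 : chkN 4 = true := by decide +kernel
theorem cN5 : chkN 5 = true := by decide +kernel
theorem cN6 : chkN 6 = true := by decide +kernel
theorem cN7 : chkN 7 = true := by decide +kernel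

end Cfsg.Agent.Lib.Conway.U43C
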