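import Cfsg.Agent.Lib.Conway.U43C.Defs
import Cfsg.Agent.Lib.Classical.RingCongr3

/-!
# The stabiliser of three vectors is the unitary group of dimension four over nine elements
-/

set_option autoImplicit false

namespace Cfsg.Agent.Lib.Conway.U43C

open Cfsg Cfsg.Spor Cfsg.Agent.Lib.Compute Cfsg.Agent.Lib.Golay Cfsg.Agent.Lib.KnownSimple.PE Cfsg.Agent.Lib.KnownSimple.Leech
open Cfsg.Agent.Lib.Conway Cfsg.Agent.Lib.TC MulAction
open Cfsg.Agent.Lib.Conway.PSUK (mkP)

/-! ### The incidence table -/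

theorem tb_mkN (m K n : ℕ) : Cfsg.Agent.Lib.Compute.tb (mkN m K) n = true ↔ ∃ k, k < K ∧ sl m k = n := by
  induction K with
  | zero =>
    show Cfsg.Agent.Lib.Compute.tb 0 n = true ↔ _
    rw [tb_eq]
    simp
  | succ K ih =>
    show Cfsg.Agent.Lib.Compute.tb (Nat.lor (mkN m K) (Nat.shiftLeft 1 (sl m K))) n = true ↔ _
    rw [tb_eq] at ih ⊢
    have e : (Nat.lor (mkN m K) (Nat.shiftLeft 1 (sl m K))).testBit n =
        ((mkN m K).testBit n || (1 <<< (sl m K) : ℕ).testBit n) := Nat.testBit_or _ _ _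
    rw [e, Bool.or_eq_true, ih, testBit_shift_one]
    constructor
    · rintro (⟨k, hk, rfl⟩ | rfl)
      · exact ⟨k, by omega, rfl⟩
      · exact ⟨K, by omega, rfl⟩
    · rintro ⟨k, hk, rfl⟩
      by_cases h : k = K
      · subst h
        exact Or.inr rfl
      · exact Or.inl ⟨k, by omega, rfl⟩

theorem sl_lt {m k : ℕ} (hm : m < 112) (hk : k < 10) : sl m k < 280 := by
  have h := (allBelow_iff _ _).1 ((allBelow_iff _ _).1 hsl m hm) k hk
  simpa [Nat.blt_eq] using h

/-- A vector of the table. -/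
noncomputable def xv (m : ℕ) : LL :=
  if h : m < 115 then ⟨ofF (vecZ xc m), mem_L_of_chkL ((allBelow_iff _ _).1 hmem m h)⟩ else 0

theorem xv_pt {m : ℕ} (hm : m < 115) {j : ℕ} (hj : j < 24) : ((xv m : LL) : Vec) (pt j) = vecZ xc m j := by
  unfold xv
  rw [dif_pos hm]
  show ofF (vecZ xc m) (pt j) = vecZ xc m j
  exact ofF_pt _ hj

theorem xv_eq {m : ℕ} (hm : m < 115) (hm' : ofF (vecZ xc m) ∈ leechLattice) : xv m = ⟨ofF (vecZ xc m), hm'⟩ := by
  unfold xv
  rw [dif_pos hm]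

/-! ### The relation -/

/-- The relation between a permutation of the lines and an automorphism of the lattice. -/
def Q (a : Equiv.Perm (Fin U43C.tb.n)) (f : Equiv.Perm LL) : Prop :=
  ∀ m, m < 112 → ∃ m', m' < 112 ∧ f (xv m) = xv m' ∧
    ∀ n : Fin U43C.tb.n, Cfsg.Agent.Lib.Compute.tb (mk m) n.val = true → Cfsg.Agent.Lib.Compute.tb (mk m') (a n).val = true

theorem Q_one : Q 1 1 := fun m hm => ⟨m, hm, rfl, fun _ h => h⟩

theorem Q_mul {a a' : Equiv.Perm (Fin U43C.tb.n)} {f f' : Equiv.Perm LL} (h : Q a f) (h' : Q a' f') : Q (a * a') (f * f') := by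
  intro m hm
  obtain ⟨m1, hm1, e1, s1⟩ := h' m hm
  obtain ⟨m2, hm2, e2, s2⟩ := h m1 hm1
  exact ⟨m2, hm2, by rw [Equiv.Perm.mul_apply, e1, e2], fun n hn => s2 _ (s1 n hn)⟩

theorem Q_pow {a : Equiv.Perm (Fin U43C.tb.n)} {f : Equiv.Perm LL} (h : Q a f) (N : ℕ) : Q (a ^ N) (f ^ N) := by
  induction N with
  | zero =>
    rw [pow_zero, pow_zero]
    exact Q_one
  | succ N ih =>
    rw [pow_succ, pow_succ]
    exact Q_mul ih h

/-- The third fixed vector. -/
noncomputable def x0 : LL := xv 114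

theorem xv112 : xv 112 = leechV := by
  apply LL_ext
  intro j hj
  rw [xv_pt (by norm_num) hj, rowV_pt j hj]
  exact of_decide_eq_true ((allBelow_iff _ _).1 chkEqV j hj)

theorem xv113 : xv 113 = leechU := by
  apply LL_ext
  intro j hj
  rw [xv_pt (by norm_num) hj, rowU_pt j hj]
  exact of_decide_eq_true ((allBelow_iff _ _).1 chkEqU j hj)

/-- The group. -/
noncomputable def Gam : Subgroup (Equiv.Perm LL) := Spor.McL ⊓ MulAction.stabilizer (Equiv.Perm LL) x0

theorem mem_Gam {f : Equiv.Perm LL} (h0 : f ∈ Co0) (h1 : f leechV = leechV) (h2 : f leechU = leechU) (h3 : f x0 = x0) : f ∈ Gam :=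
  ⟨⟨⟨h0, h1⟩, h2⟩, h3⟩

theorem Gam_co0 {f : Equiv.Perm LL} (h : f ∈ Gam) : f ∈ Co0 := h.1.1.1
theorem Gam_V {f : Equiv.Perm LL} (h : f ∈ Gam) : f leechV = leechV := h.1.1.2
theorem Gam_U {f : Equiv.Perm LL} (h : f ∈ Gam) : f leechU = leechU := h.1.2
theorem Gam_x {f : Equiv.Perm LL} (h : f ∈ Gam) : f x0 = x0 := h.2

/-- An element of the group attached to a generator. -/
structure GenOK (g : ℕ) (f : Equiv.Perm LL) : Prop where
  mem : f ∈ Gam
  img : ∀ m, m < 112 → f (xv m) = xv (sg g m)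
  q : Q (U43C.tb.perm (U43C.tb.inv g)) f

theorem genOK_of {g : ℕ} (hg : g < 8) {S S' : List (List (ℕ × ℤ))} (hce : chkElt S S' = true) (hF : chkF S = true)
    (hI : chkI S g = true) (hN : chkN g = true) : ∃ f, GenOK g f := by
  obtain ⟨f, hf, hs⟩ := exists_elt hce
  have hS : ∀ i, ∀ q ∈ rowOf S i, q.1 < 24 := by
    unfold chkElt at hce
    simp only [Bool.and_eq_true] at hce
    exact cols_of_all hce.1.1.1.1.1.1
  have hF' := hF
  unfold chkF at hF'
  rw [Bool.and_eq_true, Bool.and_eq_true] at hF'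
  have hlt : ∀ m, m < 112 → sg g m < 112 ∧ chkImgV S (vecZ xc m) (vecZ xc (sg g m)) = true := by
    intro m hm
    have h1 := (allBelow_iff _ _).1 hI m hm
    cases h2 : Nat.blt (sg g m) 112
    · rw [h2, bcond_false] at h1
      exact Bool.noConfusion h1
    · rw [h2, bcond_true] at h1
      exact ⟨by simpa [Nat.blt_eq] using h2, h1⟩
  have himg : ∀ m, m < 112 → f (xv m) = xv (sg g m) := fun m hm =>
    img_of_S hS hs (fun j hj => xv_pt (by omega) hj) (fun j hj => xv_pt (by have := (hlt m hm).1; omega) hj) (hlt m hm).2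
  refine ⟨f, ⟨?_, himg, ?_⟩⟩
  · refine mem_Gam hf ?_ ?_ ?_
    · rw [← xv112]
      exact img_of_S hS hs (fun j hj => xv_pt (by norm_num) hj) (fun j hj => xv_pt (by norm_num) hj) hF'.1.1
    · rw [← xv113]
      exact img_of_S hS hs (fun j hj => xv_pt (by norm_num) hj) (fun j hj => xv_pt (by norm_num) hj) hF'.1.2
    · exact img_of_S hS hs (fun j hj => xv_pt (by norm_num) hj) (fun j hj => xv_pt (by norm_num) hj) hF'.2
  · intro m hm
    refine ⟨sg g m, (hlt m hm).1, himg m hm, ?_⟩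
    intro n hn
    obtain ⟨k, hk, e⟩ := (tb_mkN m 10 _).1 hn
    have h2 := (allBelow_iff _ _).1 ((allBelow_iff _ _).1 hN m hm) k hk
    rw [e] at h2
    rw [U43C.tb.perm_val (U43C.tb.hinv g hg).1, (U43C.tb.hinv g hg).2]
    exact h2

theorem exG : ∀ g, g < 8 → ∃ f, GenOK g f := by
  intro g hg
  interval_cases g
  · exact genOK_of (by norm_num) ce0 cF0 cI0 cN0
  · exact genOK_of (by norm_num) ce1 cF1 cI1 cN1
  · exact genOK_of (by norm_num) ce2 cF2 cI2 cN2
  · exact genOK_of (by norm_num) ce3 cF3 cI3 cN3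
  · exact genOK_of (by norm_num) ce4 cF4 cI4 cN4
  · exact genOK_of (by norm_num) ce5 cF5 cI5 cN5
  · exact genOK_of (by norm_num) ce6 cF6 cI6 cN6
  · exact genOK_of (by norm_num) ce7 cF7 cI7 cN7

/-- The group of permutations of the lines. -/
noncomputable abbrev AA : Subgroup (Equiv.Perm (Fin U43C.tb.n)) := U43C.tb.gp SW

theorem exists_Q_word : ∀ w : List ℕ, (∀ g ∈ w, g < U43C.tb.ng) → ∃ f ∈ Gam, Q (evalWord U43C.tb.perm w) f := by
  intro w hw
  induction w with
  | nil => exact ⟨1, Gam.one_mem, Q_one⟩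
  | cons g w ih =>
    obtain ⟨f, hf, hq⟩ := ih (fun a ha => hw a (by simp [ha]))
    have hg := hw g (by simp)
    obtain ⟨f0, hf0⟩ := exG (U43C.tb.inv g) (U43C.tb.hinv g hg).1
    have hq0 := hf0.q
    rw [(U43C.tb.hinv g hg).2] at hq0
    rw [evalWord_cons]
    exact ⟨f0 * f, Gam.mul_mem hf0.mem hf, Q_mul hq0 hq⟩

theorem exists_Q : ∀ a ∈ AA, ∃ f ∈ Gam, Q a f := by
  intro a ha
  induction ha using Subgroup.closure_induction with
  | mem a h =>
    obtain ⟨w, hw, rfl⟩ := h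
    exact exists_Q_word w (hlet w hw)
  | one => exact ⟨1, Gam.one_mem, Q_one⟩
  | mul a b _ _ ha hb =>
    obtain ⟨f, hf, hq⟩ := ha
    obtain ⟨f', hf', hq'⟩ := hb
    exact ⟨f * f', Gam.mul_mem hf hf', Q_mul hq hq'⟩
  | inv a _ ha =>
    obtain ⟨f, hf, hq⟩ := ha
    refine ⟨f ^ (orderOf a - 1), Gam.pow_mem hf _, ?_⟩
    have h1 : a⁻¹ = a ^ (orderOf a - 1) := by
      apply inv_eq_of_mul_eq_one_right
      rw [← pow_succ', Nat.sub_add_cancel (orderOf_pos a), pow_orderOf_eq_one]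
    rw [h1]
    exact Q_pow hq _

theorem eq_one_of_Q {δ : Equiv.Perm LL} (hδ : δ ∈ Gam) (h : Q 1 δ) : δ = 1 := by
  have hfix : ∀ m, m < 21 → δ (xv m) = xv m := by
    intro m hm
    obtain ⟨m', hm', e, s⟩ := h m (by omega)
    have h3 : m' = m := by
      have h1 := (allBelow_iff _ _).1 ((allBelow_iff _ _).1 chkU m hm) m' hm'
      have h2 : allBelow (fun k => Cfsg.Agent.Lib.Compute.tb (mk m') (sl m k)) 10 = true := by
        rw [allBelow_iff]
        intro k hk
        have hn : Cfsg.Agent.Lib.Compute.tb (mk m) (sl m k) = true := (tb_mkN m 10 _).2 ⟨k, hk, rfl⟩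
        exact s ⟨sl m k, sl_lt (by omega) hk⟩ hn
      rw [h2, bcond_true] at h1
      exact Nat.eq_of_beq_eq_true h1
    rw [e, h3]
  have hbi : ∀ i, i < 24 → bi i < 115 ∧ δ (xv (bi i)) = xv (bi i) := by
    intro i hi
    by_cases h1 : i < 21
    · have e : bi i = i := by
        unfold bi
        rw [show Nat.blt i 21 = true by simpa [Nat.blt_eq] using h1, bcond_true]
      rw [e]
      exact ⟨by omega, hfix i h1⟩
    · have h2 : i = 21 ∨ i = 22 ∨ i = 23 := by omega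
      rcases h2 with rfl | rfl | rfl
      · refine ⟨by decide +kernel, ?_⟩
        rw [show bi 21 = 112 by decide +kernel, xv112]
        exact Gam_V hδ
      · refine ⟨by decide +kernel, ?_⟩
        rw [show bi 22 = 113 by decide +kernel, xv113]
        exact Gam_U hδ
      · refine ⟨by decide +kernel, ?_⟩
        rw [show bi 23 = 114 by decide +kernel]
        exact Gam_x hδ
  have hB : ∀ i, i < 24 → ofF (Bf i) ∈ leechLattice := fun i hi =>
    mem_L_of_chkL ((allBelow_iff _ _).1 hmem (bi i) (hbi i hi).1)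
  refine eq_one_of_span (D := Dn) (by decide +kernel) chkSp hB (Gam_co0 hδ) ?_
  intro i hi
  have h1 := (hbi i hi).2
  rw [xv_eq (hbi i hi).1 (hB i hi)] at h1
  exact h1

instance finite_perm : Finite (Equiv.Perm (Fin U43C.tb.n)) := inferInstance

/-! ### The order of the group -/

theorem dot_xv (a b : ℕ) (ha : a < 115) (hb : b < 115) : dotInt ((xv a : LL) : Vec) ((xv b : LL) : Vec) = dotZ xc a b := by
  unfold dotZ dotInt
  rw [sumN_eq, sum_eq]
  refine Finset.sum_congr rfl fun k hk => ?_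
  have hk' := Finset.mem_range.1 hk
  rw [xv_pt ha hk', xv_pt hb hk']
  rfl

theorem x0_mem : x0 ∈ C3.XM (-leechV) leechU := by
  have h1 : sqNorm ((xv 114 : LL) : Vec) = 32 := by
    rw [LRep.sqNorm_eq_dot, dot_xv 114 114 (by norm_num) (by norm_num)]
    exact norm_x0
  have h2 : dotInt ((xv 112 : LL) : Vec) ((xv 114 : LL) : Vec) = -24 := by
    rw [dot_xv 112 114 (by norm_num) (by norm_num)]
    exact dot_V_x0
  have h3 : dotInt ((xv 113 : LL) : Vec) ((xv 114 : LL) : Vec) = 16 := by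
    rw [dot_xv 113 114 (by norm_num) (by norm_num)]
    exact dot_U_x0
  rw [xv112] at h2
  rw [xv113] at h3
  refine ⟨h1, C3.PS_of_dot C3.neg_V_norm h1 ?_, h3⟩
  rw [coe_neg, dotInt_neg_left, show dotInt (leechV : Vec) ((x0 : LL) : Vec) = -24 from h2]
  norm_num

theorem card_stab : Nat.card ↥(MulAction.stabilizer ↥Spor.McL x0) * 275 = 898128000 := by
  have h1 := (MulAction.stabilizer ↥Spor.McL x0).card_mul_index
  rw [MulAction.index_stabilizer] at h1
  have h2 : MulAction.orbit ↥Spor.McL x0 = C3.XM (-leechV) leechU := by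
    ext x
    constructor
    · rintro ⟨g, rfl⟩
      have himg := C3.XM_image g.2.1.1 (-leechV) leechU
      rw [map_neg_Co0 g.2.1.1, show g.1 leechV = leechV from g.2.1.2, show g.1 leechU = leechU from g.2.2] at himg
      rw [← himg]
      exact ⟨x0, x0_mem, rfl⟩
    · intro hx
      obtain ⟨g, hg, e⟩ := C3.trans_XM0 x0_mem hx
      exact ⟨⟨g.1, ⟨g.2, C3.fix_U hg⟩⟩, e⟩
  rw [h2, C3.ncard_XM0, ML.card_McL] at h1
  exact h1

/-- The group as a stabiliser. -/
noncomputable def gamEquiv : ↥Gam ≃ ↥(MulAction.stabilizer ↥Spor.McL x0) where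
  toFun f := ⟨⟨f.1, f.2.1⟩, f.2.2⟩
  invFun g := ⟨g.1.1, ⟨g.1.2, g.2⟩⟩
  left_inv _ := rfl
  right_inv _ := rfl

theorem card_Gam : Nat.card ↥Gam = 3265920 := by
  rw [Nat.card_congr gamEquiv]
  have h1 := card_stab
  have h2 : Nat.card ↥(MulAction.stabilizer ↥Spor.McL x0) * 275 = 3265920 * 275 := by
    rw [h1]
  exact Nat.eq_of_mul_eq_mul_right (by norm_num) h2

instance finite_Gam : Finite ↥Gam := Nat.finite_of_card_ne_zero (by rw [card_Gam]; norm_num)

theorem Q_uniq {a : Equiv.Perm (Fin U43C.tb.n)} {f f' : Equiv.Perm LL} (hf : f ∈ Gam) (hf' : f' ∈ Gam) (h : Q a f) (h' : Q a f') :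
    f = f' := by
  set c1 := Nat.card ↥Gam with hc1
  set c2 := Nat.card (Equiv.Perm (Fin U43C.tb.n)) with hc2
  have hc1p : 0 < c1 := Nat.card_pos
  have hc2p : 0 < c2 := Nat.card_pos
  have hn : 0 < c1 * c2 := Nat.mul_pos hc1p hc2p
  have e1 : f ^ (c1 * c2) = 1 := by
    have h1 : ((⟨f, hf⟩ : ↥Gam)) ^ c1 = 1 := pow_card_eq_one'
    have h2 : f ^ c1 = 1 := congrArg Subtype.val h1
    rw [pow_mul, h2, one_pow]
  have e2 : a ^ (c1 * c2) = 1 := by
    have h1 : a ^ c2 = 1 := pow_card_eq_one'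
    rw [mul_comm, pow_mul, h1, one_pow]
  have e3 : f ^ (c1 * c2 - 1) * f = 1 := by
    rw [← pow_succ, Nat.sub_add_cancel hn, e1]
  have e4 : a ^ (c1 * c2 - 1) * a = 1 := by
    rw [← pow_succ, Nat.sub_add_cancel hn, e2]
  have h3 := Q_mul (Q_pow h (c1 * c2 - 1)) h'
  rw [e4] at h3
  have h4 := eq_one_of_Q (Gam.mul_mem (Gam.pow_mem hf _) hf') h3
  exact (mul_left_cancel (e3.trans h4.symm))

/-! ### Isomorphisms -/

theorem exists_hom {A B : Type*} [Group A] [Group B] (R : A → B → Prop) (hex : ∀ a, ∃ b, R a b)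
    (huniq : ∀ a b b', R a b → R a b' → b = b') (hmul : ∀ a a' b b', R a b → R a' b' → R (a * a') (b * b')) :
    ∃ f : A →* B, ∀ a, R a (f a) := by
  choose f hf using hex
  exact ⟨MonoidHom.mk' f (fun a a' => huniq _ _ _ (hf _) (hmul _ _ _ _ (hf a) (hf a'))), hf⟩

theorem card_AA : 3265920 ≤ Nat.card ↥AA := by
  have h := L0
  rw [List.drop_zero] at h
  exact h

theorem Re_uniq {a : Equiv.Perm (Fin U43C.tb.n)} {k k' : PS} (h : Re a k) (h' : Re a k') : k = k' := by
  have h1 : k⁻¹ * k' = 1 := by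
    apply Dt.hβ hK hn
    rintro _ ⟨n, hn, rfl⟩
    have hn' : n < U43C.tb.n := hn
    have e1 := h ⟨n, hn'⟩
    have e2 := h' ⟨n, hn'⟩
    rw [map_mul, Equiv.Perm.mul_apply]
    show (βP k⁻¹) (βP k' (Dt.τ (⟨n, hn'⟩ : Fin U43C.tb.n).val)) = Dt.τ (⟨n, hn'⟩ : Fin U43C.tb.n).val
    rw [e2, ← e1, map_inv]
    simp
  exact (inv_mul_eq_one.1 h1)

theorem exists_e1 : Nonempty (↥AA ≃* PS) := by
  obtain ⟨χ, hχ⟩ := exists_hom (A := ↥AA) (B := PS) (fun a k => Re a.1 k)
    (fun a => by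
      obtain ⟨k, h⟩ := exists_Re a.1 a.2
      exact ⟨k, h⟩)
    (fun a b b' h h' => Re_uniq h h')
    (fun a a' b b' h h' => by
      intro n
      show βP (b * b') (Dt.τ n.val) = Dt.τ ((a.1 * a'.1) n).val
      rw [map_mul, Equiv.Perm.mul_apply, h' n, Equiv.Perm.mul_apply]
      exact h (a'.1 n))
  have hinj : Function.Injective χ := by
    rw [injective_iff_map_eq_one]
    intro a ha
    have h1 := hχ a
    rw [ha] at h1
    apply Subtype.ext
    apply Equiv.ext
    intro n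
    have h2 := h1 n
    rw [map_one] at h2
    apply Fin.ext
    exact (Dt.τ_inj n.2 (a.1 n).2 h2).symm
  have hfin : Finite PS := Nat.finite_of_card_ne_zero (by rw [card_PS]; norm_num)
  have hbij : Function.Bijective χ := hinj.bijective_of_nat_card_le (by
    rw [card_PS]
    exact card_AA)
  exact ⟨MulEquiv.ofBijective χ hbij⟩

theorem exists_e2 : Nonempty (↥AA ≃* ↥Gam) := by
  obtain ⟨e1⟩ := exists_e1
  have hs : IsSimpleGroup ↥AA := by
    have := simplePS
    exact e1.isSimpleGroup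
  obtain ⟨ψ, hψ⟩ := exists_hom (A := ↥AA) (B := ↥Gam) (fun a f => Q a.1 f.1)
    (fun a => by
      obtain ⟨f, hf, h⟩ := exists_Q a.1 a.2
      exact ⟨⟨f, hf⟩, h⟩)
    (fun a b b' h h' => Subtype.ext (Q_uniq b.2 b'.2 h h'))
    (fun a a' b b' h h' => Q_mul h h')
  have hker : ψ.ker ≠ ⊤ := by
    intro htop
    obtain ⟨f, hf⟩ := exG 1 (by norm_num)
    have hmem : evalWord U43C.tb.perm [0] ∈ AA :=
      Subgroup.subset_closure ⟨[0], by decide +kernel, rfl⟩
    have h1 : ψ ⟨_, hmem⟩ = 1 := by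
      have : (⟨_, hmem⟩ : ↥AA) ∈ ψ.ker := by
        rw [htop]
        exact Subgroup.mem_top _
      exact this
    have h2 := hψ ⟨_, hmem⟩
    rw [h1] at h2
    have h3 : evalWord U43C.tb.perm [0] = U43C.tb.perm (U43C.tb.inv 1) := by
      rw [evalWord_cons, evalWord_nil, mul_one]
      rfl
    have h4 : Q (U43C.tb.perm (U43C.tb.inv 1)) 1 := by
      have h5 : Q (evalWord U43C.tb.perm [0]) 1 := h2
      rwa [h3] at h5
    have h6 : f = 1 := Q_uniq hf.mem Gam.one_mem hf.q h4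
    have h7 := hf.img 0 (by norm_num)
    rw [h6] at h7
    have h8 : xv 0 = xv (sg 1 0) := h7
    have h9 := congrFun (congrArg Subtype.val h8) (pt 0)
    rw [xv_pt (by norm_num) (by norm_num), xv_pt (by have := sg10; omega) (by norm_num)] at h9
    exact moved h9.symm
  have hinj : Function.Injective ψ := by
    rw [injective_iff_map_eq_one']
    intro a
    constructor
    · intro ha
      rcases IsSimpleGroup.eq_bot_or_eq_top_of_normal ψ.ker ψ.normal_ker with h | h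
      · have : a ∈ ψ.ker := ha
        rw [h] at this
        exact this
      · exact absurd h hker
    · rintro rfl
      exact map_one _
  have hbij : Function.Bijective ψ := hinj.bijective_of_nat_card_le (by
    rw [card_Gam]
    exact card_AA)
  exact ⟨MulEquiv.ofBijective ψ hbij⟩

/-- The main statement. -/
theorem S1582_aux (u v x : LL) (hu : sqNorm u.1 = 48) (hv : sqNorm v.1 = 32 ∧ sqNorm (u - v : LL).1 = 32) (hx : x ∈ C3.XM u v)
    (F : Type) [Field F] [Fintype F] (hF : Fintype.card F = 9) :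
    Nonempty (↥(MulAction.stabilizer ↥Co0 u ⊓ MulAction.stabilizer ↥Co0 v ⊓ MulAction.stabilizer ↥Co0 x) ≃* PSU 4 F 3) := by
  obtain ⟨e1⟩ := exists_e1
  obtain ⟨e2⟩ := exists_e2
  obtain ⟨h, hh, e₁, e₂⟩ := C3.orb_pair u v hu hv.1 (C3.dot_of_PS hu hv.1 hv.2)
  have himg := C3.XM_image hh u v
  rw [e₁, e₂] at himg
  have h1 : h x ∈ C3.XM (-leechV) leechU := by
    rw [← himg]
    exact ⟨x, hx, rfl⟩
  obtain ⟨t, ht, e₃⟩ := C3.trans_XM0 h1 x0_mem
  have hK' : t.1 * h ∈ Co0 := mul_mem t.2.1 hh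
  have eU : (t.1 * h) u = -leechV := by
    rw [Equiv.Perm.mul_apply, e₁]
    exact C3.fix_V t
  have eV : (t.1 * h) v = leechU := by
    rw [Equiv.Perm.mul_apply, e₂]
    exact C3.fix_U ht
  have eX : (t.1 * h) x = x0 := by
    rw [Equiv.Perm.mul_apply]
    exact e₃
  have hiso : ↥(MulAction.stabilizer ↥Co0 u ⊓ MulAction.stabilizer ↥Co0 v ⊓ MulAction.stabilizer ↥Co0 x) ≃* ↥Gam := by
    refine TabSimple.conjIso (B := Gam) (fun _ hg => Gam_co0 hg) hK' fun a => ?_
    have h3 := TabSimple.conj_fix_iff (g := a.1) eU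
    have h4 := TabSimple.conj_fix_iff (g := a.1) eV
    have h5 := TabSimple.conj_fix_iff (g := a.1) eX
    have mem : t.1 * h * a.1 * (t.1 * h)⁻¹ ∈ Co0 := mul_mem (mul_mem hK' a.2) (inv_mem hK')
    have hVneg : ∀ {f : Equiv.Perm LL}, f ∈ Co0 → (f (-leechV) = -leechV ↔ f leechV = leechV) := by
      intro f hf
      rw [map_neg_Co0 hf]
      exact neg_inj
    rw [Subgroup.mem_inf, Subgroup.mem_inf, mem_stabilizer_iff, mem_stabilizer_iff, mem_stabilizer_iff]
    constructor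
    · rintro ⟨⟨h6, h7⟩, h8⟩
      exact mem_Gam mem ((hVneg mem).1 (h3.2 h6)) (h4.2 h7) (h5.2 h8)
    · intro h6
      exact ⟨⟨h3.1 ((hVneg mem).2 (Gam_V h6)), h4.1 (Gam_U h6)⟩, h5.1 (Gam_x h6)⟩
  have hc : Fintype.card K = Fintype.card F := by
    rw [hF]
    exact card_K.symm
  exact ⟨hiso.trans (e2.symm.trans (e1.trans (Cfsg.Agent.Lib.Classical.RC.psuCongr (FiniteField.ringEquivOfCardEq hc) 4 3)))⟩

end Cfsg.Agent.Lib.Conway.U43C
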